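import Cfsg.Agent.POPlus.Cases
import Cfsg.Agent.OutPO.PlusInn
import Cfsg.Agent.S2725

/-!
The isomorphism of the Chevalley group of type `D₄` with `PΩ⁺₈` on root elements, and the
normality of the inner-diagonal group of `PΩ⁺₈`.
-/

set_option autoImplicit false
set_option linter.unusedSectionVars false

namespace Cfsg.Agent.POPlus

open Cfsg.Lie Cfsg.Agent.Chev.Classical Cfsg.Agent.ChevGrp Cfsg.Agent.KSG.Aut
open Cfsg.Agent.Classical (simAut plusCoord plusScale diagGL diagGL_mulVec isoGroup_le_simGroup)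
open Matrix

universe u

variable {F : Type u} [Field F] [Finite F]

/-- A homomorphism of the cover onto `PΩ⁺₈` factors as an isomorphism of the Chevalley group. -/
theorem exists_equiv_of_cover (hS : Rules chevD4 F)
    (Ψ : chevD4.SteinbergCover F →* Cfsg.POmega F (Cfsg.quadFormPlus 4 F)) (hne : Ψ ≠ 1) :
    ∃ e : ↥(chevD4.group F) ≃* Cfsg.POmega F (Cfsg.quadFormPlus 4 F),
      ∀ r < chevD4.nroots, ∀ t : F, e ((gSys hS).x r t) = Ψ (chevD4.scGen F r t) := by
  obtain ⟨θ, hθ, hθc, hθx⟩ := CentralExt.Cover.exists_projection hS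
  have hP := ChevGrp.perfectData_D4 F
  obtain ⟨hsimple, -⟩ := ChevGrp.thm_simple hS hP
  have hperf := CentralExt.Cover.perfect hS hP
  have hker : Ψ.ker ≤ θ.ker := by
    have hn : (Ψ.ker.map θ).Normal := Subgroup.Normal.map inferInstance θ hθ
    rcases hsimple.eq_bot_or_eq_top_of_normal _ hn with h | h
    · rwa [Subgroup.map_eq_bot_iff] at h
    · exfalso
      have htop : Ψ.ker ⊔ θ.ker = ⊤ := by
        rw [← Subgroup.comap_map_eq, h, Subgroup.comap_top]
      have hle : commutator (chevD4.SteinbergCover F) ≤ Ψ.ker := by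
        rw [commutator_def, Subgroup.commutator_le]
        intro a ha b hb
        rw [← htop, Subgroup.mem_sup_of_normal_left] at ha hb
        obtain ⟨a₁, ha₁, a₂, ha₂, rfl⟩ := ha
        obtain ⟨b₁, hb₁, b₂, hb₂, rfl⟩ := hb
        rw [MonoidHom.mem_ker, map_commutatorElement, map_mul, map_mul, MonoidHom.mem_ker.1 ha₁,
          MonoidHom.mem_ker.1 hb₁, one_mul, one_mul, ← map_commutatorElement,
          commutatorElement_eq_one_iff_mul_comm.2 (Subgroup.mem_center_iff.1 (hθc hb₂) a₂), map_one]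
      exact hne (MonoidHom.ext fun d => hle (by rw [hperf]; trivial))
  -- the image maps onto the group, so it is everything
  let η : ↥Ψ.range →* ↥(chevD4.group F) := Ψ.rangeRestrict.liftOfSurjective
    Ψ.rangeRestrict_surjective ⟨θ, by rwa [MonoidHom.ker_rangeRestrict]⟩
  have hη : ∀ d, η (Ψ.rangeRestrict d) = θ d :=
    MonoidHom.liftOfRightInverse_comp_apply Ψ.rangeRestrict _ _ ⟨θ, by rwa [MonoidHom.ker_rangeRestrict]⟩
  have hηs : Function.Surjective η := fun g => by
    obtain ⟨d, rfl⟩ := hθ g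
    exact ⟨_, hη d⟩
  obtain ⟨e₀⟩ := Cfsg.Agent.S1082.result (F := F)
  have hcard : Nat.card ↥(chevD4.group F) = Nat.card (Cfsg.POmega F (Cfsg.quadFormPlus 4 F)) :=
    Nat.card_congr e₀.toEquiv
  have htop : Ψ.range = ⊤ := by
    refine Subgroup.eq_top_of_le_card _ ?_
    rw [← hcard]
    exact Nat.card_le_card_of_surjective η hηs
  have hbij : Function.Bijective η := by
    refine (Nat.bijective_iff_surjective_and_card η).2 ⟨hηs, ?_⟩
    rw [hcard, htop, Subgroup.card_top]
  refine ⟨(MulEquiv.ofBijective η hbij).symm.trans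
    ((MulEquiv.subgroupCongr htop).trans Subgroup.topEquiv), fun r hr t => ?_⟩
  have h1 : η (Ψ.rangeRestrict (chevD4.scGen F r t)) = (gSys hS).x r t := by
    rw [hη]
    refine Subtype.ext (Units.ext ?_)
    rw [hθx r t hr]
    exact ((gSys hS).θ_x r hr t).symm
  rw [← h1]
  show (MulEquiv.subgroupCongr htop ((MulEquiv.ofBijective η hbij).symm
    (MulEquiv.ofBijective η hbij (Ψ.rangeRestrict _))) : Cfsg.POmega F (Cfsg.quadFormPlus 4 F)) = _
  rw [MulEquiv.symm_apply_apply]
  rfl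

/-- The opposite coordinate. -/
def opp8 (i : Fin 8) : Fin 8 := i + 4

/-- The weights of a diagonal similarity. -/
def wt8 (a : Fin 4 → Fˣ) (c : Fˣ) : Fin 8 → Fˣ :=
  Sum.elim a (fun i => c * (a i)⁻¹) ∘ d4Idx.symm

/-- Every row has two opposite monomials of degree one, and the rows of opposite simple roots are transposed. -/
def rowsOK : Bool :=
  ((List.range 24).all fun r => match repD4.rows.getD r [] with
    | [m, m'] => decide (m.i = 1) && decide (m.j = 0) && decide (m'.i = 1) && decide (m'.j = 0) &&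
        decide (m'.a = opp8 m.b) && decide (m'.b = opp8 m.a)
    | _ => false) &&
  (List.finRange chevD4.rank).all fun i =>
    match repD4.rows.getD (chevD4.simple i) [], repD4.rows.getD (chevD4.neg (chevD4.simple i)) [] with
    | m :: _, m' :: _ => (decide (m'.a = m.b) && decide (m'.b = m.a)) ||
        (decide (m'.a = opp8 m.a) && decide (m'.b = opp8 m.b))
    | _, _ => false

theorem rowsOK_true : rowsOK = true := by decide +kernel

/-- The character of a diagonal similarity at a root. -/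
def chi8 (a : Fin 4 → Fˣ) (c : Fˣ) (r : ℕ) : Fˣ :=
  match repD4.rows.getD r [] with
  | m :: _ => wt8 a c m.a * (wt8 a c m.b)⁻¹
  | [] => 1

theorem wt8_opp (a : Fin 4 → Fˣ) (c : Fˣ) (i : Fin 8) : wt8 a c (opp8 i) = c * (wt8 a c i)⁻¹ := by
  fin_cases i <;> simp [wt8, opp8, d4Idx, finSumFinEquiv, Fin.addCases]

theorem chi8_spec (a : Fin 4 → Fˣ) (c : Fˣ) {r : ℕ} (hr : r < chevD4.nroots) :
    ∀ m ∈ repD4.rows.getD r [], m.i = 1 ∧ m.j = 0 ∧
      wt8 a c m.a = chi8 a c r * wt8 a c m.b := by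
  have h := rowsOK_true
  simp only [rowsOK, Bool.and_eq_true, List.all_eq_true, List.mem_range] at h
  have h24 : chevD4.nroots = 24 := by decide +kernel
  have h' := h.1 r (h24 ▸ hr)
  rcases he : repD4.rows.getD r [] with _ | ⟨m, _ | ⟨m', _ | ⟨m'', L⟩⟩⟩
  all_goals rw [he] at h'
  · simp
  · simp at h'
  · simp only [Bool.and_eq_true, decide_eq_true_eq] at h'
    obtain ⟨⟨⟨⟨⟨h1, h2⟩, h3⟩, h4⟩, h5⟩, h6⟩ := h'
    intro x hx
    simp only [List.mem_cons, List.not_mem_nil, or_false] at hx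
    have hχ : chi8 a c r = wt8 a c m.a * (wt8 a c m.b)⁻¹ := by simp only [chi8, he]
    rcases hx with rfl | rfl
    · exact ⟨h1, h2, by rw [hχ, inv_mul_cancel_right]⟩
    · refine ⟨h3, h4, ?_⟩
      rw [hχ, h5, h6, wt8_opp, wt8_opp]
      simp [mul_comm, mul_assoc, mul_left_comm]
  · simp at h'

theorem chi8_neg (a : Fin 4 → Fˣ) (c : Fˣ) (i : Fin chevD4.rank) :
    chi8 a c (chevD4.neg (chevD4.simple i)) = (chi8 a c (chevD4.simple i))⁻¹ := by
  have h := rowsOK_true
  simp only [rowsOK, Bool.and_eq_true, List.all_eq_true] at h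
  have h' := h.2 i (List.mem_finRange i)
  simp only [chi8]
  rcases he : repD4.rows.getD (chevD4.simple i) [] with _ | ⟨m, L⟩ <;>
    rcases he' : repD4.rows.getD (chevD4.neg (chevD4.simple i)) [] with _ | ⟨m', L'⟩
  all_goals rw [he, he'] at h'
  all_goals simp only [Bool.false_eq_true, Bool.or_eq_true, Bool.and_eq_true, decide_eq_true_eq] at h'
  rcases h' with ⟨h1, h2⟩ | ⟨h1, h2⟩
  · simp [h1, h2, mul_comm]
  · simp [h1, h2, wt8_opp, mul_comm, mul_assoc, mul_left_comm]

/-- Conjugation of a root element by a diagonal similarity. -/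
theorem rootMat_diag (a : Fin 4 → Fˣ) (c : Fˣ) {r : ℕ} (hr : r < chevD4.nroots) (t : F)
    (v : Fin 8 → F) (x : Fin 8) :
    (wt8 a c x : F) * (rootMat repD4 r t *ᵥ v) x =
      (rootMat repD4 r ((chi8 a c r : F) * t) *ᵥ fun j => (wt8 a c j : F) * v j) x := by
  simp only [rootMat, Matrix.add_mulVec, Matrix.one_mulVec, Pi.add_apply, meval_mulVec_apply,
    mul_add, ← List.sum_map_mul_left]
  refine congrArg (_ + List.sum ·) (List.map_congr_left fun m hm => ?_)
  obtain ⟨hi, hj, hw⟩ := chi8_spec a c hr m hm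
  by_cases hx : m.a = x
  · rw [if_pos hx, if_pos hx, hi, hj, ← hx, hw, Units.val_mul]
    ring
  · rw [if_neg hx, if_neg hx, mul_zero]

/-- The diagonal similarity with given weights. -/
def diagSim (a : Fin 4 → Fˣ) (c : Fˣ) :
    Cfsg.Geo.quadSimilarityGroup (F := F) (Cfsg.quadFormPlus 4 F) :=
  ⟨diagGL _ F (Sum.elim a fun i => c * (a i)⁻¹), ⟨c, fun v => by
    simp only [Cfsg.quadFormPlus, diagGL_mulVec, Finset.mul_sum, Sum.elim_inl, Sum.elim_inr,
      Units.val_mul, Units.val_inv_eq_inv_val]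
    refine Finset.sum_congr rfl fun i _ => ?_
    have := (a i).ne_zero
    field_simp⟩⟩

theorem exists_transfer (hS : Rules chevD4 F) {len : ℕ → ℕ} (hR : RootTable chevD4 len)
    (hE : chainEdgeOK chevD4 = true) (hD : KSG.chainStepOK chevD4 = true) :
    ∃ e : ↥(chevD4.group F) ≃* Cfsg.POmega F (Cfsg.quadFormPlus 4 F), ∀ a c,
      ∃ u, MulAut.congr e.symm (simAut (diagSim a c)) = diagOf hS hR hE hD u := by
  obtain ⟨ψ, hψ⟩ := exists_hom repD4_ok hS d4Idx (Cfsg.quadFormPlus 4 F) form_D4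
  have hP := ChevGrp.perfectData_D4 F
  have hmem : ∀ d, ψ d ∈ Cfsg.Omega F (Cfsg.quadFormPlus 4 F) := fun d => by
    have h : (commutator (chevD4.SteinbergCover F)).map ψ ≤ Cfsg.Omega F (Cfsg.quadFormPlus 4 F) := by
      rw [commutator_def, Subgroup.map_commutator]
      exact Subgroup.commutator_mono le_top le_top
    exact h ⟨d, by rw [CentralExt.Cover.perfect hS hP]; trivial, rfl⟩
  let ψ₀ := ψ.codRestrict _ hmem
  let Ψ : chevD4.SteinbergCover F →* Cfsg.POmega F (Cfsg.quadFormPlus 4 F) :=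
    (QuotientGroup.mk' _).comp ψ₀
  have h24 : chevD4.nroots = 24 := by decide +kernel
  have hne : Ψ ≠ 1 := by
    intro h1
    set g := Subgroup.inclusion (isoGroup_le_simGroup (f := Cfsg.quadFormPlus 4 F))
      (ψ (chevD4.scGen F 0 1)) with hg
    have hg1 : simAut g = 1 := MulEquiv.ext fun y => by
      obtain ⟨s, rfl⟩ := QuotientGroup.mk_surjective y
      have h2 : Ψ (chevD4.scGen F 0 1) = 1 := by rw [h1]; rfl
      have h3 := Subgroup.mem_center_iff.1 ((QuotientGroup.eq_one_iff _).1 h2) s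
      rw [Classical.simAut_mk, MulAut.one_apply]
      congr 1
      refine Subtype.ext (Subtype.ext ?_)
      rw [Classical.conjOmega_val]
      show g.1 * s.1.1 * g.1⁻¹ = s.1.1
      rw [mul_inv_eq_iff_eq_mul]
      exact (congrArg (fun z : Cfsg.Omega F (Cfsg.quadFormPlus 4 F) => z.1.1) h3).symm
    obtain ⟨c, hc⟩ := ((plusCoord (F := F) 1).simAut_eq_one_iff_scal g).1 hg1
    have h4 := congrFun (hψ 0 (by rw [h24]; norm_num) (1 : F)
      (Pi.single (.inl 1) 1)) (Sum.inr 0)
    rw [show ((ψ (chevD4.scGen F 0 1) : GL (Fin 4 ⊕ Fin 4) F)) = g.1 from rfl, ← hc,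
      (plusCoord (F := F) 1).scal_val, Matrix.smul_mulVec, Matrix.one_mulVec] at h4
    simp [rootMat, repD4, Matrix.add_mulVec, meval_mulVec_apply, -meval_cons, d4Idx, finSumFinEquiv,
      Fin.addCases, Pi.single_apply, chevD4] at h4
  obtain ⟨e, he⟩ := exists_equiv_of_cover hS Ψ hne
  refine ⟨e, fun a c => ⟨fun i => chi8 a c (chevD4.simple i), ?_⟩⟩
  have key : ∀ r < chevD4.nroots, ∀ t : F,
      simAut (diagSim a c) (Ψ (chevD4.scGen F r t)) =
        Ψ (chevD4.scGen F r ((chi8 a c r : F) * t)) := by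
    intro r hr t
    show simAut _ (QuotientGroup.mk (ψ₀ _)) = QuotientGroup.mk (ψ₀ _)
    rw [Classical.simAut_mk]
    congr 1
    refine Subtype.ext (Subtype.ext ?_)
    rw [Classical.conjOmega_val]
    show (diagSim a c).1 * (ψ (chevD4.scGen F r t)).1 * (diagSim a c).1⁻¹ =
      (ψ (chevD4.scGen F r ((chi8 a c r : F) * t))).1
    rw [mul_inv_eq_iff_eq_mul]
    refine Units.ext (Matrix.ext_iff_mulVec.2 fun v => ?_)
    rw [Units.val_mul, Units.val_mul, ← Matrix.mulVec_mulVec, ← Matrix.mulVec_mulVec, hψ r hr,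
      hψ r hr]
    funext x
    have hw : ∀ y, ((Sum.elim a (fun i => c * (a i)⁻¹) y : Fˣ) : F) = wt8 a c (d4Idx y) :=
      fun y => by simp [wt8]
    show (((diagGL (Fin 4 ⊕ Fin 4) F (Sum.elim a fun i => c * (a i)⁻¹) : GL (Fin 4 ⊕ Fin 4) F)) :
      Matrix (Fin 4 ⊕ Fin 4) (Fin 4 ⊕ Fin 4) F).mulVec _ x = _
    rw [diagGL_mulVec, hw, Function.comp_apply, rootMat_diag a c hr]
    refine congrArg (fun z => (rootMat repD4 r _ *ᵥ z) (d4Idx x)) (funext fun j => ?_)
    show _ = (((diagGL (Fin 4 ⊕ Fin 4) F (Sum.elim a fun i => c * (a i)⁻¹) : GL (Fin 4 ⊕ Fin 4) F)) :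
      Matrix (Fin 4 ⊕ Fin 4) (Fin 4 ⊕ Fin 4) F).mulVec v (d4Idx.symm j)
    rw [diagGL_mulVec, hw, Equiv.apply_symm_apply]
    rfl
  refine mulAut_ext hS hR (fun i t => ?_) (fun i t => ?_)
  · have h := hR.simple_lt i i.2
    rw [(diagOf_x hS hR hE hD _ i t).1]
    apply e.injective
    show e (e.symm (simAut (diagSim a c) (e.symm.symm _))) = _
    rw [MulEquiv.apply_symm_apply, MulEquiv.symm_symm, he _ h, he _ h, key _ h]
  · have h := hR.neg_lt _ (hR.simple_lt i i.2)
    rw [(diagOf_x hS hR hE hD _ i t).2]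
    apply e.injective
    show e (e.symm (simAut (diagSim a c) (e.symm.symm _))) = _
    rw [MulEquiv.apply_symm_apply, MulEquiv.symm_symm, he _ h, he _ h, key _ h, chi8_neg,
      Units.val_inv_eq_inv_val]

theorem plusScale_eq_diagSim (c : Fˣ) : plusScale 4 c = diagSim (F := F) (fun _ => c) c :=
  Subtype.ext (congrArg (diagGL _ F) (funext fun i => by rcases i with i | i <;> simp))

theorem plusTorus_eq_diagSim (d : Fin 4 → Fˣ) :
    Subgroup.inclusion (isoGroup_le_simGroup (f := Cfsg.quadFormPlus 4 F))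
      (Classical.plusTorus 4 d) = diagSim (F := F) d 1 :=
  Subtype.ext (congrArg (diagGL _ F) (funext fun i => by rcases i with i | i <;> simp))

/-- In odd characteristic every inner-diagonal automorphism is a diagonal class of `D₄`. -/
theorem inndiag_four_le (hodd : Odd (Nat.card F)) (H : Subgroup (MulAut (Cfsg.POmega F (Cfsg.quadFormPlus 4 F))))
    (hinn : Cfsg.Inn (Cfsg.POmega F (Cfsg.quadFormPlus 4 F)) ≤ H)
    (hdiag : ∀ a c, simAut (diagSim a c) ∈ H) :
    Cfsg.inndiagPOmegaPlus 4 F ≤ H := by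
  rw [Classical.inndiag_plus_eq 1 hodd]
  rintro _ ⟨g, hg, rfl⟩
  haveI := Fintype.ofFinite F
  set D := plusCoord (F := F) 1
  obtain ⟨c, hc⟩ := FiniteField.exists_nonsquare (D.ringChar_ne_two hodd)
  have hc0 : c ≠ 0 := by rintro rfl; exact hc ⟨0, by simp⟩
  set u := Units.mk0 c hc0
  have hu : ¬ IsSquare (u : F) := hc
  -- multiplier
  have hsc : D.mu (plusScale 4 u) = u := Units.ext (D.mu_eq_of _ fun v => by
    simp [plusScale, Cfsg.quadFormPlus, diagGL_mulVec, Finset.mul_sum, mul_assoc])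
  have hscd : D.dsign 4 (plusScale 4 u) = 1 := by
    show Matrix.GeneralLinearGroup.det _ * (D.mu _ ^ 4)⁻¹ = 1
    rw [hsc, mul_inv_eq_one]
    refine Units.ext ?_
    rw [Matrix.GeneralLinearGroup.val_det_apply]
    show (Matrix.diagonal _).det = _
    simp [Matrix.det_diagonal, Fintype.prod_sum_type]
  suffices hsq : ∀ g, IsSquare (D.mu g) → D.dsign 4 g = 1 → simAut g ∈ H by
    by_cases hm : IsSquare (D.mu g)
    · exact hsq g hm hg
    · have h := hsq (plusScale 4 u * g) (by
          rw [map_mul, hsc]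
          exact D.nonsquare_mul hodd (fun ⟨t, ht⟩ => hu ⟨t, by rw [ht]; rfl⟩) hm)
        (by rw [map_mul, hscd, one_mul]; exact hg)
      rw [map_mul, plusScale_eq_diagSim] at h
      exact (H.mul_mem_cancel_left (hdiag _ _)).1 h
  intro g hm hd
  have hps := ((D).mem_P0_iff (Classical.card_plus 1) g).2 ⟨hm, hd⟩
  rw [Classical.psoAut_eq] at hps
  obtain ⟨s, ⟨hs1, hs2⟩, hs⟩ := hps
  rw [← hs]
  set s' : ↥(Cfsg.isometryGroup F (Cfsg.quadFormPlus 4 F)) := ⟨s.1, hs1⟩
  have hs' : s = Subgroup.inclusion isoGroup_le_simGroup s' := rfl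
  set z := Classical.plusTorus 4 (Pi.mulSingle (0 : Fin 4) u)
  have hz : D.theta z = -1 := Classical.theta_plusTorus_single 1 hodd 0 u hu
  have hzdet : Matrix.GeneralLinearGroup.det z.1 = 1 := Units.ext (by
    rw [Matrix.GeneralLinearGroup.val_det_apply]
    show (Matrix.diagonal _).det = _
    simp [Matrix.det_diagonal, Fintype.prod_sum_type, Fin.prod_univ_four, Pi.mulSingle_apply])
  rw [hs']
  rcases Int.units_eq_one_or (D.theta s') with h | h
  · exact hinn ((D.mem_inn_iso_iff hodd (Classical.card_plus 1) s').2 ⟨hs2, Or.inl h⟩)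
  · have h1 := hinn ((D.mem_inn_iso_iff hodd (Classical.card_plus 1) (z * s')).2
      ⟨by rw [Subgroup.coe_mul, map_mul, hzdet, one_mul]; exact hs2,
        Or.inl (by rw [map_mul, hz, h]; decide)⟩)
    rw [map_mul, map_mul, plusTorus_eq_diagSim] at h1
    exact (H.mul_mem_cancel_left (hdiag _ _)).1 h1

/-- The inner-diagonal group of `PΩ⁺₈` is normal in the automorphism group. -/
theorem inndiag_four_normal : (Cfsg.inndiagPOmegaPlus 4 F).Normal := by
  haveI := AutPSL.inn_normal (Cfsg.POmega F (Cfsg.quadFormPlus 4 F))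
  haveI := Fintype.ofFinite F
  rcases Nat.even_or_odd (Nat.card F) with heven | hodd
  · haveI : CharP F 2 := by
      have h2 : ringChar F = 2 := by
        by_contra h
        have := FiniteField.odd_card_of_char_ne_two h
        rw [Nat.card_eq_fintype_card, Nat.even_iff] at heven
        omega
      exact h2 ▸ ringChar.charP F
    exact (OutPO.inndiagPlus_eq_inn_char_two (F := F) (k := 1)) ▸ inferInstance
  have hS := Cfsg.Agent.Chev.rules_of_mem F chevD4_mem
  obtain ⟨len, hR⟩ := hS.root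
  have hE := chainEdgeOK_of_mem chevD4_mem
  have hD := Cfsg.Agent.KSG.chainStepOK_of_mem chevD4_mem
  obtain ⟨e, he⟩ := exists_transfer hS hR hE hD
  let q : MulAut (Cfsg.POmega F (Cfsg.quadFormPlus 4 F)) →* Cfsg.Out ↥(chevD4.group F) :=
    (QuotientGroup.mk' _).comp (MulAut.congr e.symm).toMonoidHom
  have hqs : Function.Surjective q := (QuotientGroup.mk'_surjective _).comp (MulAut.congr e.symm).surjective
  have hqk : q.ker = Cfsg.Inn (Cfsg.POmega F (Cfsg.quadFormPlus 4 F)) := by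
    ext α
    rw [MonoidHom.mem_ker]
    show QuotientGroup.mk' _ _ = 1 ↔ _
    rw [QuotientGroup.mk'_apply, QuotientGroup.eq_one_iff]
    constructor
    · rintro ⟨g, hg⟩
      refine ⟨e g, MulEquiv.ext fun x => ?_⟩
      have := DFunLike.congr_fun hg (e.symm x)
      apply e.symm.injective
      simpa [MulAut.congr, MulAut.conj_apply] using this
    · rintro ⟨y, rfl⟩
      exact ⟨e.symm y, MulEquiv.ext fun x => by simp [MulAut.congr, MulAut.conj_apply]⟩
  set Dg := (dOut hS hR hE hD).range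
  have hle : Cfsg.inndiagPOmegaPlus 4 F ≤ Dg.comap q := by
    refine inndiag_four_le hodd _ (fun α hα => ?_) fun a c => ?_
    · rw [Subgroup.mem_comap, (MonoidHom.mem_ker).1 (hqk.symm ▸ hα)]
      exact one_mem _
    · obtain ⟨u, hu⟩ := he a c
      exact ⟨u, (congrArg (QuotientGroup.mk' _) hu).symm⟩
  -- both have index four over the inner automorphisms
  obtain ⟨φ, hφs, hφk⟩ := (Cfsg.Agent.S2725.result (F := F)
    (Nat.card_eq_fintype_card (α := F) ▸ hodd) (m := 4) le_rfl).2.2 ⟨2, rfl⟩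
  have hinn : Cfsg.Inn (Cfsg.POmega F (Cfsg.quadFormPlus 4 F)) ≤ Cfsg.inndiagPOmegaPlus 4 F :=
    OutPO.inn_le_inndiagPlus (k := 1)
  have hidx : (Cfsg.Inn (Cfsg.POmega F (Cfsg.quadFormPlus 4 F))).relIndex
      (Cfsg.inndiagPOmegaPlus 4 F) = 4 := by
    rw [Subgroup.relIndex, ← hφk, Subgroup.index_ker, MonoidHom.range_eq_top.2 hφs, Subgroup.card_top]
    simp
  have hidx' : (Cfsg.Inn (Cfsg.POmega F (Cfsg.quadFormPlus 4 F))).relIndex (Dg.comap q) = 4 := by
    rw [← hqk, ← MonoidHom.comap_bot, Subgroup.relIndex_comap, Subgroup.map_comap_eq_self_of_surjective hqs,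
      Subgroup.relIndex_bot_left, card_dOut hS hR hE hD, card_rootKer_D4]
    have : Nat.card F % 2 = 1 := Nat.odd_iff.1 hodd
    have h1 : 1 < Nat.card F := Finite.one_lt_card
    rw [Nat.gcd_eq_left (Nat.dvd_of_mod_eq_zero (by omega))]
    norm_num
  have heq : Cfsg.inndiagPOmegaPlus 4 F = Dg.comap q := by
    refine le_antisymm hle (Subgroup.relIndex_eq_one.1 ?_)
    have := Subgroup.relIndex_mul_relIndex _ _ _ hinn hle
    rw [hidx, hidx'] at this
    omega
  rw [heq]
  haveI := dOut_normal hS hR hE hD hMemD4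
  infer_instance

end Cfsg.Agent.POPlus
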