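import Cfsg.Agent.OutPO.PlusGraphSplit
import Cfsg.Agent.OutPO.MinusTransport

/-!
Rational points of the similarity group of the plus-type form and the centralizer of a field
automorphism in the inner-diagonal group, in every dimension `2(k+3)`.
-/

set_option autoImplicit false
set_option linter.unusedSectionVars false
set_option maxHeartbeats 1000000
set_option synthInstance.maxHeartbeats 400000

namespace Cfsg.Agent.POPlus

open Matrix QuadraticMap
open Cfsg.Agent.AutPSL (twistNorm)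
open Cfsg.Agent.Classical (simAut plusQF plusQF_apply plusCoord plusScale plusTorus diagGL
  diagGL_mulVec plusTorus_mulVec)
open Cfsg.Agent.OutPO (PIx GOp isoIncP pchi phiP pConj incV map_mulVec_inc sim_of_rational
  exists_rational_gl map_map_of_fixed gl_ext scal_mulVec_p scal_commP)

universe u v

variable {F : Type u} [Field F] [Finite F] {F₀ : Type v} [Field F₀] [Finite F₀] {k : ℕ}

theorem scal_one : (plusCoord (F := F) k).scal 1 = 1 := Subtype.ext (map_one _)

theorem scal_mul (c d : Fˣ) : (plusCoord (F := F) k).scal c * (plusCoord (F := F) k).scal d =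
    (plusCoord (F := F) k).scal (c * d) :=
  Subtype.ext (map_mul (GeneralLinearGroup.scalar (PIx k)) c d).symm

theorem scal_inj {c d : Fˣ}
    (h : (plusCoord (F := F) k).scal c = (plusCoord (F := F) k).scal d) : c = d := by
  have h1 := congrArg (fun g : ↥(GOp k F) =>
    ((g.1 : Matrix (PIx k) (PIx k) F) *ᵥ fun _ => (1 : F)) (.inl 0)) h
  simp only [scal_mulVec_p, Pi.smul_apply, smul_eq_mul, mul_one] at h1
  exact Units.ext h1

/-- The field automorphisms act faithfully. -/
theorem phiP_eq_one {σ : F ≃+* F} (h : phiP k F σ = 1) : σ = 1 := by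
  refine RingEquiv.ext fun a => ?_
  show σ a = a
  rcases eq_or_ne a 0 with rfl | ha
  · exact map_zero σ
  set g : ↥(GOp k F) := isoIncP (plusTorus (k + 3) (Pi.mulSingle 0 (Units.mk0 a ha)))
  have h1 := OutPO.phiP_mul_simAut σ g
  rw [h, one_mul, mul_one] at h1
  obtain ⟨c, hc⟩ := ((plusCoord (F := F) k).simAut_eq_one_iff_scal (pConj k σ g * g⁻¹)).1 (by
    rw [map_mul, map_inv, ← h1, mul_inv_cancel])
  have hc' : pConj k σ g = (plusCoord (F := F) k).scal c * g := by rw [hc, inv_mul_cancel_right]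
  have hone : (fun i => σ ((fun _ : PIx k => (1 : F)) i)) = fun _ => (1 : F) :=
    funext fun _ => map_one σ
  have key : ∀ i : PIx k,
      σ (((Sum.elim (Pi.mulSingle (0 : Fin (k + 3)) (Units.mk0 a ha))
        (fun j => ((Pi.mulSingle (0 : Fin (k + 3)) (Units.mk0 a ha) : Fin (k + 3) → Fˣ) j)⁻¹) i : Fˣ) : F)) =
      (c : F) * ((Sum.elim (Pi.mulSingle (0 : Fin (k + 3)) (Units.mk0 a ha))
        (fun j => ((Pi.mulSingle (0 : Fin (k + 3)) (Units.mk0 a ha) : Fin (k + 3) → Fˣ) j)⁻¹) i : Fˣ) : F) := by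
    intro i
    have h2 := congrArg (fun x : ↥(GOp k F) =>
      ((x.1 : Matrix (PIx k) (PIx k) F) *ᵥ fun _ => (1 : F)) i) hc'
    simp only [Subgroup.coe_mul, Units.val_mul, ← Matrix.mulVec_mulVec, scal_mulVec_p, Pi.smul_apply,
      smul_eq_mul] at h2
    rw [OutPO.pConj_coe] at h2
    conv_lhs at h2 => rw [← hone, OutPO.map_mulVec_comp]
    change σ ((((plusTorus (k + 3) _).1 : GL (PIx k) F) : Matrix (PIx k) (PIx k) F).mulVec _ i) =
      (c : F) * ((((plusTorus (k + 3) _).1 : GL (PIx k) F) : Matrix (PIx k) (PIx k) F).mulVec _ i) at h2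
    rw [plusTorus_mulVec, mul_one] at h2
    exact h2
  have h3 := key (.inl 1)
  have hne : (1 : Fin (k + 3)) ≠ 0 := by
    intro h'
    have := congrArg Fin.val h'
    simp at this
  simp [Pi.mulSingle_eq_of_ne hne] at h3
  have h4 := key (.inl 0)
  simpa [← h3] using h4

theorem phiP_injective : Function.Injective (phiP k F) :=
  (injective_iff_map_eq_one _).2 fun _ h => phiP_eq_one h

variable (e : F₀ →+* F)

theorem plus_incV (w : PIx k → F₀) :
    Cfsg.quadFormPlus (k + 3) F (incV e w) = e (Cfsg.quadFormPlus (k + 3) F₀ w) := by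
  simp [Cfsg.quadFormPlus, incV, map_sum]

theorem map_sim_mem {g : GL (PIx k) F₀} (hg : g ∈ GOp k F₀) :
    GeneralLinearGroup.map e g ∈ GOp k F := by
  obtain ⟨c, hc⟩ := hg
  refine ⟨Units.map e.toMonoidHom c, sim_of_rational e (plusQF (k + 3) F) (plusQF_apply _)
    (plus_incV e) fun w => ?_⟩
  rw [map_mulVec_inc, plus_incV, hc, map_mul]
  rfl

/-- The rational similarities. -/
def inclG (k : ℕ) (e : F₀ →+* F) : ↥(GOp k F₀) →* ↥(GOp k F) :=
  ((GeneralLinearGroup.map e).comp (GOp k F₀).subtype).codRestrict _ fun g => map_sim_mem e g.2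

theorem inclG_coe (g : ↥(GOp k F₀)) : (inclG k e g).1 = GeneralLinearGroup.map e g.1 := rfl

theorem inclG_refl (x : PIx k → F₀) (hx : Cfsg.quadFormPlus (k + 3) F₀ x ≠ 0) :
    ∃ hX, inclG k e (isoIncP ((plusCoord (F := F₀) k).refl x hx)) =
      isoIncP ((plusCoord (F := F) k).refl (incV e x) hX) := by
  have hX : Cfsg.quadFormPlus (k + 3) F (incV e x) ≠ 0 := by
    rw [plus_incV]; exact (map_ne_zero e).2 hx
  refine ⟨hX, Subtype.ext (OutPO.gl_ext_rational e fun w => ?_)⟩
  rw [inclG_coe, map_mulVec_inc]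
  show incV e ((((plusCoord (F := F₀) k).refl x hx).1 : Matrix (PIx k) (PIx k) F₀) *ᵥ w) =
    (((plusCoord (F := F) k).refl _ hX).1 : Matrix (PIx k) (PIx k) F) *ᵥ incV e w
  rw [(plusCoord (F := F₀) k).refl_mulVec, (plusCoord (F := F) k).refl_mulVec]
  funext i
  simp [polar, ← OutPO.incV_add, plus_incV, incV]

theorem inclG_scale (c : F₀ˣ) :
    inclG k e (plusScale (k + 3) c) = plusScale (k + 3) (Units.map e.toMonoidHom c) := by
  refine Subtype.ext (OutPO.gl_ext_rational e fun w => ?_)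
  rw [inclG_coe, map_mulVec_inc]
  funext i
  show e _ = _
  simp only [plusScale, diagGL_mulVec, map_mul]
  rcases i with i | i <;> simp [incV]

theorem pchi_inclG (g : ↥(GOp k F₀)) : pchi k F (inclG k e g) = pchi k F₀ g :=
  DFunLike.congr_fun (OutPO.hom_ext_GOp ((pchi k F).comp (inclG k e)) (pchi k F₀)
    (fun x hx => by
      obtain ⟨hX, h⟩ := inclG_refl e x hx
      rw [MonoidHom.comp_apply, h, OutPO.pchi_refl, OutPO.pchi_refl])
    fun c => by
      rw [MonoidHom.comp_apply, inclG_scale, OutPO.pchi_plusScale, OutPO.pchi_plusScale]) g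

variable {σ : F ≃+* F} (he : ∀ x : F, σ x = x ↔ ∃ y, e y = x)

include he

theorem pConj_inclG (g : ↥(GOp k F₀)) : pConj k σ (inclG k e g) = inclG k e g :=
  Subtype.ext (map_map_of_fixed e he g.1)

theorem exists_of_fixed {g : ↥(GOp k F)} (hg : pConj k σ g = g) : ∃ g₀, inclG k e g₀ = g := by
  obtain ⟨g₀, hg₀⟩ := exists_rational_gl e he (congrArg Subtype.val hg)
  set D := plusCoord (F := F) k
  have hrat : ∀ w, e (Cfsg.quadFormPlus (k + 3) F₀ ((g₀ : Matrix (PIx k) (PIx k) F₀) *ᵥ w)) =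
      (D.mu g : F) * e (Cfsg.quadFormPlus (k + 3) F₀ w) := fun w => by
    rw [← plus_incV, ← plus_incV, ← map_mulVec_inc, hg₀]
    exact D.f_mulVec g _
  set w₁ : PIx k → F₀ := Pi.single (.inl 0) 1 + Pi.single (.inr 0) 1
  have hw₁ : Cfsg.quadFormPlus (k + 3) F₀ w₁ = 1 := by
    simp [w₁, Cfsg.quadFormPlus, Pi.single_apply]
  set c := Cfsg.quadFormPlus (k + 3) F₀ ((g₀ : Matrix (PIx k) (PIx k) F₀) *ᵥ w₁)
  have hc : e c = (D.mu g : F) := by rw [hrat, hw₁, map_one, mul_one]
  have hc0 : c ≠ 0 := fun h => (D.mu g).ne_zero (by rw [← hc, h, map_zero])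
  exact ⟨⟨g₀, Units.mk0 c hc0, fun w => e.injective (by
    rw [hrat, Units.val_mk0, map_mul, hc])⟩, Subtype.ext hg₀⟩

omit he in
theorem simAut_inclG_eq_one (g : ↥(GOp k F₀)) : simAut (inclG k e g) = 1 ↔ simAut g = 1 := by
  rw [(plusCoord (F := F) k).simAut_eq_one_iff_scal, (plusCoord (F := F₀) k).simAut_eq_one_iff_scal]
  constructor
  · rintro ⟨c, hc⟩
    have h1 : ∀ i t, e ((g.1 : Matrix (PIx k) (PIx k) F₀) i t) = if i = t then (c : F) else 0 := by
      intro i t
      have h2 := congrFun (congrArg (fun x : ↥(GOp k F) =>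
        (x.1 : Matrix (PIx k) (PIx k) F) *ᵥ (Pi.single t (1 : F))) hc) i
      simp only [Matrix.mulVec_single_one] at h2
      simpa [inclG_coe, (plusCoord (F := F) k).scal_val, Matrix.one_apply] using h2.symm
    set c₀ := (g.1 : Matrix (PIx k) (PIx k) F₀) (.inl 0) (.inl 0)
    have hc₀ : e c₀ = (c : F) := by rw [h1, if_pos rfl]
    have hne : c₀ ≠ 0 := fun h => c.ne_zero (by rw [← hc₀, h, map_zero])
    refine ⟨Units.mk0 c₀ hne, Subtype.ext (Units.ext (Matrix.ext fun i t => e.injective ?_))⟩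
    rw [h1, (plusCoord (F := F₀) k).scal_val, Matrix.smul_apply, Matrix.one_apply, Units.val_mk0,
      smul_eq_mul]
    split_ifs <;> simp [hc₀]
  · rintro ⟨c, rfl⟩
    refine ⟨Units.map e.toMonoidHom c, Subtype.ext (OutPO.gl_ext_rational e fun w => ?_)⟩
    rw [inclG_coe, map_mulVec_inc, scal_mulVec_p, scal_mulVec_p]
    funext i
    simp [incV]

/-- The similarities commuting with a field automorphism are scalars times rational ones. -/
theorem commute_iff {r : ℕ} (hσ : orderOf σ = r) (g : ↥(GOp k F)) :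
    simAut g * phiP k F σ = phiP k F σ * simAut g ↔
      ∃ (c : Fˣ) (g₀ : ↥(GOp k F₀)), g = (plusCoord (F := F) k).scal c * inclG k e g₀ := by
  set D := plusCoord (F := F) k
  rw [OutPO.phiP_mul_simAut, mul_left_inj]
  constructor
  · intro h
    obtain ⟨lam, hlam⟩ := (D.simAut_eq_one_iff_scal (pConj k σ g * g⁻¹)).1 (by
      rw [map_mul, map_inv, ← h, mul_inv_cancel])
    have hlam' : pConj k σ g = D.scal lam * g := by rw [hlam, inv_mul_cancel_right]
    set s := Units.map σ.toRingHom.toMonoidHom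
    have hcomp : ∀ (τ : F ≃+* F), pConj k (σ * τ) g = pConj k σ (pConj k τ g) :=
      fun τ => Subtype.ext (Units.ext (Matrix.ext fun _ _ => rfl))
    have key : ∀ n, pConj k (σ ^ n) g = D.scal (twistNorm s lam n) * g := by
      intro n
      induction n with
      | zero =>
        show pConj k (1 : F ≃+* F) g = D.scal 1 * g
        rw [scal_one, one_mul]
        exact Subtype.ext (Units.ext (Matrix.ext fun _ _ => rfl))
      | succ n ih =>
        rw [pow_succ', hcomp, ih, map_mul, OutPO.pConj_scal, hlam', ← mul_assoc, scal_mul,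
          show twistNorm s lam (n + 1) = lam * s (twistNorm s lam n) from rfl, mul_comm lam]
    have hN : twistNorm s lam r = 1 := by
      have h1 := key r
      rw [← hσ, pow_orderOf_eq_one] at h1
      rw [show pConj k (1 : F ≃+* F) g = g from Subtype.ext (Units.ext (Matrix.ext fun _ _ => rfl)),
        eq_comm, mul_eq_right, hσ] at h1
      exact scal_inj (h1.trans scal_one.symm)
    obtain ⟨t, ht⟩ := OutPO.exists_hilbert90 σ hσ lam hN
    have hfix : pConj k σ (D.scal t * g) = D.scal t * g := by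
      rw [map_mul, OutPO.pConj_scal, hlam', ← mul_assoc, scal_mul]
      congr 2
      exact Units.ext (by rw [Units.val_mul, mul_comm]; exact ht)
    obtain ⟨g₀, hg₀⟩ := exists_of_fixed e he hfix
    exact ⟨t⁻¹, g₀, by rw [hg₀, ← mul_assoc, scal_mul, inv_mul_cancel, scal_one, one_mul]⟩
  · rintro ⟨c, g₀, rfl⟩
    rw [map_mul, map_mul (pConj k σ), map_mul, OutPO.pConj_scal, D.simAut_scal, D.simAut_scal,
      pConj_inclG e he]

/-- The centralizer of a field automorphism. -/
theorem centralizer_iso {r : ℕ} (hσ : orderOf σ = r) :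
    Nonempty (↥(Cfsg.inndiagPOmegaPlus (k + 3) F ⊓ Subgroup.centralizer {phiP k F σ}) ≃*
      ↥(Cfsg.inndiagPOmegaPlus (k + 3) F₀)) := by
  let ψ₀ : ↥(pchi k F₀).ker →* MulAut (Cfsg.POmega F₀ (Cfsg.quadFormPlus (k + 3) F₀)) :=
    simAut.comp (pchi k F₀).ker.subtype
  let ψ : ↥(pchi k F₀).ker →* MulAut (Cfsg.POmega F (Cfsg.quadFormPlus (k + 3) F)) :=
    simAut.comp ((inclG k e).comp (pchi k F₀).ker.subtype)
  have hker : ψ.ker = ψ₀.ker := by
    ext g
    exact simAut_inclG_eq_one e g.1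
  have hrange : ψ.range =
      Cfsg.inndiagPOmegaPlus (k + 3) F ⊓ Subgroup.centralizer {phiP k F σ} := by
    ext β
    rw [OutPO.inndiagPlus_eq, Subgroup.mem_inf, Subgroup.mem_centralizer_singleton_iff]
    constructor
    · rintro ⟨g, rfl⟩
      refine ⟨Subgroup.mem_map_of_mem _ ?_, (commute_iff e he hσ _).2 ⟨1, g.1, ?_⟩⟩
      · rw [MonoidHom.mem_ker]; exact (pchi_inclG e g.1).trans g.2
      · rw [scal_one, one_mul]; rfl
    · rintro ⟨⟨g, hg, rfl⟩, hc⟩
      obtain ⟨c, g₀, rfl⟩ := (commute_iff e he hσ g).1 hc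
      refine ⟨⟨g₀, ?_⟩, ?_⟩
      · rw [SetLike.mem_coe, MonoidHom.mem_ker, map_mul,
          OutPO.pchi_scalar _ ((plusCoord (F := F) k).scal_mem c), one_mul, pchi_inclG] at hg
        exact hg
      · show simAut (inclG k e g₀) = simAut (_ * inclG k e g₀)
        rw [map_mul, (plusCoord (F := F) k).simAut_scal, one_mul]
  have hrange0 : ψ₀.range = Cfsg.inndiagPOmegaPlus (k + 3) F₀ := by
    rw [OutPO.inndiagPlus_eq, MonoidHom.range_comp, Subgroup.range_subtype]
  exact ⟨((MulEquiv.subgroupCongr hrange.symm).trans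
    (QuotientGroup.quotientKerEquivRange ψ).symm).trans
    (((QuotientGroup.quotientMulEquivOfEq hker).trans
      (QuotientGroup.quotientKerEquivRange ψ₀)).trans (MulEquiv.subgroupCongr hrange0))⟩

end Cfsg.Agent.POPlus
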