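import Cfsg.Agent.POPlus.FieldSplit
import Cfsg.Agent.POPlus.D4Transfer

/-!
Field automorphisms of prime order of `PΩ⁺_{2m}(q)`, `m ≥ 4`: centralizers and class splitting.
-/

set_option autoImplicit false
set_option linter.unusedSectionVars false

namespace Cfsg.Agent.POPlus

open Cfsg.Agent.Classical (plusQF plusQF_apply)
open Cfsg.Agent.OutPO (phiP)

universe u v

variable {F : Type u} [Field F] [Finite F]

theorem inndiag_normal_of_four_le {k : ℕ} (hk : 1 ≤ k) :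
    (Cfsg.inndiagPOmegaPlus (k + 3) F).Normal := by
  rcases Nat.lt_or_ge k 2 with h | h
  · obtain rfl : k = 1 := by omega
    exact inndiag_four_normal
  · exact OutPO.inndiagPlus_normal h

theorem field_class_plus {k p f r : ℕ} [Fact p.Prime] (hk : 1 ≤ k) (hF : Nat.card F = p ^ f)
    (x : MulAut (Cfsg.POmega F (Cfsg.quadFormPlus (k + 3) F)))
    (hx : Cfsg.IsFieldAutClassPOmega (Cfsg.quadFormPlus (k + 3) F) x)
    (hr : r.Prime) (hxr : orderOf x = r) (F₀ : Type v) [Field F₀] [Finite F₀]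
    (hF₀ : Nat.card F₀ = p ^ (f / r)) :
    r ∣ f ∧
    Nonempty (↥(Cfsg.inndiagPOmegaPlus (k + 3) F ⊓ Subgroup.centralizer {x}) ≃*
      ↥(Cfsg.inndiagPOmegaPlus (k + 3) F₀)) ∧
    ((Odd r ∨ p = 2) → Cfsg.splitClassCount (Cfsg.inndiagPOmegaPlus (k + 3) F)
      (Cfsg.Inn (Cfsg.POmega F (Cfsg.quadFormPlus (k + 3) F))) x = 1) ∧
    ((r = 2 ∧ p ≠ 2) → Cfsg.splitClassCount (Cfsg.inndiagPOmegaPlus (k + 3) F)
      (Cfsg.Inn (Cfsg.POmega F (Cfsg.quadFormPlus (k + 3) F))) x =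
        if Odd (k + 3) ∧ p ^ (f / 2) % 4 = 1 then 2 else 4) := by
  obtain ⟨α, φ, σ, -, hφ, hα⟩ := hx
  obtain rfl : φ = phiP (k) F σ :=
    (OutPO.isFieldAutOf_iff (plusQF (k + 3) F) (plusQF_apply _) σ (OutPO.compat_plus σ) φ).1 hφ
  have hσ : orderOf σ = r := by
    rw [← orderOf_injective (phiP k F) phiP_injective σ, ← hα, AutPSL.orderOf_conj_eq, hxr]
  obtain ⟨hrf, hfix⟩ := AutPSL.fixedField_exponent σ hF hσ
  obtain ⟨e, he⟩ := AutPSL.exists_embedding σ F₀ (hF₀.trans hfix.symm)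
  haveI := inndiag_normal_of_four_le (F := F) hk
  haveI := AutPSL.inn_normal (Cfsg.POmega F (Cfsg.quadFormPlus (k + 3) F))
  have hsplit : Cfsg.splitClassCount (Cfsg.inndiagPOmegaPlus (k + 3) F)
      (Cfsg.Inn (Cfsg.POmega F (Cfsg.quadFormPlus (k + 3) F))) x =
    Cfsg.splitClassCount (Cfsg.inndiagPOmegaPlus (k + 3) F)
      (Cfsg.Inn (Cfsg.POmega F (Cfsg.quadFormPlus (k + 3) F))) (phiP k F σ) := by
    rw [← hα, AutPSL.splitClassCount_conj]
  refine ⟨hrf, ?_, fun h => ?_, fun h => ?_⟩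
  · obtain ⟨E⟩ := centralizer_iso e he hσ
    exact ⟨((AutPSL.centEquiv (Cfsg.inndiagPOmegaPlus (k + 3) F) α x).trans
      (MulEquiv.subgroupCongr (by rw [hα]))).trans E⟩
  · rw [hsplit]
    by_cases hp : p = 2
    · haveI : Fintype F := Fintype.ofFinite F
      haveI : CharP F 2 := charP_of_card_eq_prime_pow (p := 2) (f := f)
        (by rw [← Nat.card_eq_fintype_card, hF, hp])
      exact split_char_two σ
    · exact split_odd_degree (by rw [hF]; exact ((Fact.out : p.Prime).odd_of_ne_two hp).pow) hσ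
        (h.resolve_right hp) e he
  · obtain ⟨rfl, hp⟩ := h
    obtain ⟨Dt, rfl⟩ := OutPO.exists_gfData hσ e he
    rw [hsplit, split_two (by rw [hF]; exact ((Fact.out : p.Prime).odd_of_ne_two hp).pow) Dt, hF₀]

end Cfsg.Agent.POPlus
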