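import Cfsg.Agent.POPlus.FieldCentral
import Cfsg.Agent.OutPO.MinusField
import Cfsg.Agent.OutPO.OddMain

/-!
The number of inner classes into which the inner-diagonal class of a field automorphism splits.
-/

set_option autoImplicit false
set_option linter.unusedSectionVars false
set_option maxHeartbeats 1000000
set_option synthInstance.maxHeartbeats 400000

namespace Cfsg.Agent.POPlus

open Matrix QuadraticMap
open Cfsg.Agent.Classical (simAut plusQF plusQF_apply plusCoord plusScale plusTorus diagGL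
  diagGL_mulVec plusTorus_mulVec)
open Cfsg.Agent.OutPO (PIx GOp isoIncP pchi phiP pConj incV map_mulVec_inc gl_ext scal_mulVec_p
  gl_ext_rational GFData)

universe u v

attribute [local instance] _root_.Classical.propDecidable

variable {F : Type u} [Field F] [Finite F] {F₀ : Type v} [Field F₀] [Finite F₀] {k : ℕ}

/-- The rational isometries. -/
def inclIso (k : ℕ) (e : F₀ →+* F) :
    ↥(Cfsg.isometryGroup F₀ (Cfsg.quadFormPlus (k + 3) F₀)) →*
      ↥(Cfsg.isometryGroup F (Cfsg.quadFormPlus (k + 3) F)) :=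
  ((GeneralLinearGroup.map e).comp
    (Cfsg.isometryGroup F₀ (Cfsg.quadFormPlus (k + 3) F₀)).subtype).codRestrict _ fun o =>
      (OutPO.map_mem_iso_iff e (plusQF (k + 3) F) (plusQF_apply _) (plus_incV e) o.1).2 o.2

theorem isoIncP_inclIso (e : F₀ →+* F) (o : ↥(Cfsg.isometryGroup F₀ (Cfsg.quadFormPlus (k + 3) F₀))) :
    isoIncP (inclIso k e o) = inclG k e (isoIncP o) := Subtype.ext rfl

theorem inclIso_torus (e : F₀ →+* F) (d : Fin (k + 3) → F₀ˣ) :
    inclIso k e (plusTorus (k + 3) d) = plusTorus (k + 3) fun i => Units.map e.toMonoidHom (d i) := by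
  refine Subtype.ext (gl_ext_rational e fun w => ?_)
  show ((GeneralLinearGroup.map e (plusTorus (k + 3) d).1 : GL (PIx k) F) : Matrix (PIx k) (PIx k) F) *ᵥ _ = _
  rw [map_mulVec_inc]
  funext i
  show e _ = _
  rw [plusTorus_mulVec, plusTorus_mulVec, map_mul]
  rcases i with i | i <;> simp [incV]

theorem mu_plusScale (c : Fˣ) :
    (plusCoord (F := F) k).mu (plusScale (k + 3) c) = c :=
  Units.ext ((plusCoord (F := F) k).mu_eq_of _ fun v => by
    simp [plusScale, Cfsg.quadFormPlus, diagGL_mulVec, Finset.mul_sum, mul_assoc])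

theorem plusScale_sq (c t : Fˣ) (ht : t * t = c) :
    plusScale (k + 3) c =
      (plusCoord (F := F) k).scal t * isoIncP (plusTorus (k + 3) fun _ => t) := by
  refine Subtype.ext (gl_ext fun v => ?_)
  rw [Subgroup.coe_mul, Units.val_mul, ← Matrix.mulVec_mulVec, scal_mulVec_p]
  funext i
  show _ = (t : F) * ((((plusTorus (k + 3) fun _ => t).1 : GL (PIx k) F) : Matrix (PIx k) (PIx k) F).mulVec v i)
  rw [plusTorus_mulVec]
  subst ht
  rcases i with i | i <;> simp [plusScale, diagGL_mulVec, mul_assoc]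

theorem unit_isSquare {c : Fˣ} : IsSquare c ↔ IsSquare (c : F) := by
  constructor
  · rintro ⟨t, rfl⟩; exact ⟨t, rfl⟩
  · intro h
    obtain ⟨t, ht⟩ := OutPO.exists_units_sq h
    exact ⟨t, ht.symm⟩

theorem theta_inclIso (Dt : GFData F F₀) (hodd : Odd (Nat.card F))
    (o : ↥(Cfsg.isometryGroup F₀ (Cfsg.quadFormPlus (k + 3) F₀)))
    (ho : pchi k F₀ (isoIncP o) = 1) :
    (plusCoord (F := F) k).theta (inclIso k Dt.e o) = 1 := by
  set P := plusCoord (F := F) k with hP
  set x₁ : PIx k → F₀ := Pi.single (.inl 0) 1 + Pi.single (.inr 0) 1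
  have hx₁ : Cfsg.quadFormPlus (k + 3) F₀ x₁ ≠ 0 := by
    simp [x₁, Cfsg.quadFormPlus, Pi.single_apply]
  obtain ⟨hX₁, -⟩ := inclG_refl Dt.e x₁ hx₁
  have key : P.theta.comp (inclIso k Dt.e) = (OutPO.signHom (P.theta (P.refl _ hX₁))).comp
      ((pchi k F₀).comp isoIncP) := by
    refine OutPO.hom_ext_refl (plusCoord (F := F₀) k) _ _ fun x hx => ?_
    obtain ⟨hX, h⟩ := inclG_refl Dt.e x hx
    have h' : inclIso k Dt.e ((plusCoord (F := F₀) k).refl x hx) = P.refl _ hX :=
      Subgroup.inclusion_injective Classical.isoGroup_le_simGroup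
        ((isoIncP_inclIso Dt.e _).trans h)
    rw [MonoidHom.comp_apply, h', MonoidHom.comp_apply, MonoidHom.comp_apply,
      show pchi k F₀ (isoIncP ((plusCoord (F := F₀) k).refl x hx)) = Multiplicative.ofAdd 1 from
        OutPO.pchi_refl x hx, OutPO.signHom_one]
    have h2 : P.theta (P.refl _ hX * P.refl _ hX₁) = 1 := (P.theta_refl_mul hodd hX hX₁).2 (by
      rw [plus_incV, plus_incV, ← map_mul]
      exact Dt.isSquare_rational hodd _)
    rw [map_mul] at h2
    rw [eq_inv_of_mul_eq_one_left h2, Int.units_inv_eq_self]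
  have := DFunLike.congr_fun key o
  rw [MonoidHom.comp_apply, MonoidHom.comp_apply, MonoidHom.comp_apply, ho, map_one] at this
  exact this

theorem theta_negI_two (Dt : GFData F F₀) (hodd : Odd (Nat.card F)) :
    (plusCoord (F := F) k).theta (plusCoord (F := F) k).negI = 1 := by
  rw [Classical.theta_negI_plus k hodd, if_neg fun h => by
    have := Dt.card_mod_four hodd
    omega]

/-- The sign of the rational torus elements. -/
theorem theta_root (Dt : GFData F F₀) (hodd : Odd (Nat.card F)) (c : F₀ˣ) (t : Fˣ)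
    (ht : t * t = Units.map Dt.e.toMonoidHom c) :
    (plusCoord (F := F) k).theta (plusTorus (k + 3) fun _ => t) =
      if Odd (k + 3) ∧ Nat.card F₀ % 4 = 1 ∧ ¬ IsSquare (c : F₀) then -1 else 1 := by
  haveI := Fintype.ofFinite F₀
  have htval : (t : F) * t = Dt.e (c : F₀) := congrArg Units.val ht
  have key : IsSquare (t : F) ↔ ¬ (Nat.card F₀ % 4 = 1 ∧ ¬ IsSquare (c : F₀)) := by
    rcases mul_self_eq_mul_self_iff.1 (show Dt.σ (t : F) * Dt.σ t = (t : F) * t by
      rw [← map_mul, htval, Dt.fix]) with h | h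
    · have hc : IsSquare (c : F₀) := by
        obtain ⟨s, hs⟩ := (Dt.he _).1 h
        exact ⟨s, Dt.e.injective (by rw [map_mul, hs, htval])⟩
      exact ⟨fun _ hh => hh.2 hc, fun _ =>
        (Dt.isSquare_iff_norm hodd _ _ c.ne_zero (by rw [h, htval])).2 hc⟩
    · rw [Dt.isSquare_iff_norm hodd _ (-(c : F₀)) (neg_ne_zero.2 c.ne_zero)
        (by rw [h, mul_neg, htval, map_neg])]
      by_cases hq : Nat.card F₀ % 4 = 1
      · have hneg : IsSquare (-1 : F₀) := FiniteField.isSquare_neg_one_iff.2 (by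
          rw [← Nat.card_eq_fintype_card]; omega)
        constructor
        · intro h' hh
          exact hh.2 (by simpa using hneg.mul h')
        · intro h'
          have : IsSquare (c : F₀) := not_not.1 fun hc => h' ⟨hq, hc⟩
          simpa using hneg.mul this
      · refine ⟨fun _ hh => hq hh.1, fun _ => ?_⟩
        have hneg : ¬ IsSquare (-1 : F₀) := by
          rw [FiniteField.isSquare_neg_one_iff, ← Nat.card_eq_fintype_card]
          obtain ⟨i, hi⟩ := Dt.odd_base hodd
          omega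
        by_cases hc : IsSquare (c : F₀)
        · exfalso
          obtain ⟨s, hs⟩ := hc
          rcases mul_self_eq_mul_self_iff.1
              (htval.trans (show Dt.e (c : F₀) = Dt.e s * Dt.e s by rw [hs, map_mul])) with h1 | h1
          · rw [h1, Dt.fix] at h
            exact Classical.two_ne_zero_of_odd hodd
              ((mul_eq_zero.1 (show (2 : F) * Dt.e s = 0 by linear_combination h)).resolve_right
                fun h0 => t.ne_zero (by rw [h1, h0]))
          · rw [h1, map_neg, Dt.fix] at h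
            exact Classical.two_ne_zero_of_odd hodd
              ((mul_eq_zero.1 (show (2 : F) * Dt.e s = 0 by linear_combination -h)).resolve_right
                fun h0 => t.ne_zero (by rw [h1, h0, neg_zero]))
        · have := OutPO.nonsquare_mul_nonsquare hneg hc
          rwa [neg_one_mul] at this
  by_cases hs : IsSquare (t : F)
  · rw [OutPO.theta_const_sq hs, if_neg fun hh => key.1 hs hh.2]
  · rw [Classical.theta_plusTorus k hodd t hs]
    have hq : Nat.card F₀ % 4 = 1 ∧ ¬ IsSquare (c : F₀) := not_not.1 fun h => hs (key.2 h)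
    by_cases hm : Odd (k + 3)
    · rw [hm.neg_one_pow, if_pos ⟨hm, hq⟩]
    · rw [(Nat.not_odd_iff_even.1 hm).neg_one_pow, if_neg fun hh => hm hh.1]

/-- A rational element is a scalar times an isometry with known sign. -/
theorem inclG_decomp (Dt : GFData F F₀) (hodd : Odd (Nat.card F)) (g : ↥(GOp k F₀))
    (hg : pchi k F₀ g = 1) :
    ∃ (t : Fˣ) (s : ↥(Cfsg.isometryGroup F (Cfsg.quadFormPlus (k + 3) F))),
      inclG k Dt.e g = (plusCoord (F := F) k).scal t * isoIncP s ∧
      pchi k F (isoIncP s) = 1 ∧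
      (plusCoord (F := F) k).theta s = if Odd (k + 3) ∧ Nat.card F₀ % 4 = 1 ∧
        ¬ IsSquare ((plusCoord (F := F₀) k).mu g : F₀) then -1 else 1 := by
  obtain ⟨c, o, rfl⟩ := OutPO.exists_scale_decompP g
  rw [map_mul, OutPO.pchi_plusScale, one_mul] at hg
  obtain ⟨t, ht⟩ := OutPO.exists_units_sq (c := Units.map Dt.e.toMonoidHom c)
    (Dt.isSquare_rational hodd _)
  refine ⟨t, plusTorus (k + 3) (fun _ => t) * inclIso k Dt.e o, ?_, ?_, ?_⟩
  · rw [map_mul, map_mul, inclG_scale, plusScale_sq _ t ht, isoIncP_inclIso, mul_assoc]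
  · rw [map_mul, map_mul, OutPO.pchi_plusTorus, one_mul, isoIncP_inclIso, pchi_inclG, hg]
  · rw [map_mul, map_mul, theta_inclIso Dt hodd o hg, mul_one, theta_root Dt hodd c t ht,
      mu_plusScale, show (plusCoord (F := F₀) k).mu (isoIncP o) = 1 from
        (plusCoord (F := F₀) k).mu_inc o, mul_one]

theorem split_char_two [CharP F 2] (σ : F ≃+* F) :
    Cfsg.splitClassCount (Cfsg.inndiagPOmegaPlus (k + 3) F)
      (Cfsg.Inn (Cfsg.POmega F (Cfsg.quadFormPlus (k + 3) F))) (phiP k F σ) = 1 := by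
  haveI := AutPSL.inn_normal (Cfsg.POmega F (Cfsg.quadFormPlus (k + 3) F))
  rw [OutPO.inndiagPlus_eq_inn_char_two, Cfsg.splitClassCount, Nat.card_eq_one_iff_unique]
  refine ⟨⟨fun a b => ?_⟩, ⟨Quot.mk _ ⟨phiP k F σ, 1, one_mem _, by group⟩⟩⟩
  induction a using Quot.ind with
  | mk y =>
    induction b using Quot.ind with
    | mk z =>
      refine Quot.sound ?_
      obtain ⟨h, hh, hy⟩ := y.2
      obtain ⟨h', hh', hz⟩ := z.2
      exact ⟨h' * h⁻¹, mul_mem hh' (inv_mem hh), by rw [hz, hy]; group⟩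

section Odd

variable (hodd : Odd (Nat.card F))
include hodd

theorem inner_iff (hpos : (plusCoord (F := F) k).theta (plusCoord (F := F) k).negI = 1)
    (s : ↥(Cfsg.isometryGroup F (Cfsg.quadFormPlus (k + 3) F)))
    (h : pchi k F (isoIncP s) = 1) :
    simAut (isoIncP s) ∈ Cfsg.Inn (Cfsg.POmega F (Cfsg.quadFormPlus (k + 3) F)) ↔
      (plusCoord (F := F) k).theta s = 1 := by
  show simAut (Subgroup.inclusion Classical.isoGroup_le_simGroup s) ∈ _ ↔ _
  rw [(plusCoord (F := F) k).mem_inn_iso_iff hodd (Classical.card_plus k), hpos]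
  simp [OutPO.det_of_pchi hodd s h]

theorem split_odd_degree {σ : F ≃+* F} {r : ℕ} (hσ : orderOf σ = r) (hr : Odd r)
    (e : F₀ →+* F) (he : ∀ x : F, σ x = x ↔ ∃ y, e y = x) :
    Cfsg.splitClassCount (Cfsg.inndiagPOmegaPlus (k + 3) F)
      (Cfsg.Inn (Cfsg.POmega F (Cfsg.quadFormPlus (k + 3) F))) (phiP k F σ) = 1 := by
  set P := plusCoord (F := F) k with hP
  let Φ : ↥(pchi k F).ker →* MulAut (Cfsg.POmega F (Cfsg.quadFormPlus (k + 3) F)) :=
    simAut.comp (pchi k F).ker.subtype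
  have hrange : Φ.range = Cfsg.inndiagPOmegaPlus (k + 3) F := by
    rw [OutPO.inndiagPlus_eq, MonoidHom.range_comp, Subgroup.range_subtype]
  haveI := AutPSL.inn_normal (Cfsg.POmega F (Cfsg.quadFormPlus (k + 3) F))
  set N := (Cfsg.Inn (Cfsg.POmega F (Cfsg.quadFormPlus (k + 3) F))).comap Φ with hN
  have hNmap : N.map Φ = Cfsg.Inn (Cfsg.POmega F (Cfsg.quadFormPlus (k + 3) F)) :=
    Subgroup.map_comap_eq_self (hrange ▸ OutPO.inn_le_inndiagPlus)
  let C : Subgroup ↥(pchi k F).ker := (Subgroup.centralizer {phiP k F σ}).comap Φ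
  have hC : ∀ g, g ∈ C ↔ Φ g * phiP k F σ = phiP k F σ * Φ g := fun g =>
    Subgroup.mem_centralizer_singleton_iff
  rw [← hrange, ← hNmap, AutPSL.splitClassCount_eq_index Φ _ N C hC, Subgroup.index_eq_one,
    eq_top_iff]
  have h2 := Classical.two_ne_zero_of_odd hodd
  have hodd₀ : Odd (Nat.card F₀) := by
    by_contra hcon
    haveI := Fintype.ofFinite F₀
    have h2' : ringChar F₀ = 2 := by
      by_contra hh
      have h4 := FiniteField.odd_card_of_char_ne_two hh
      rw [Nat.not_odd_iff_even, Nat.card_eq_fintype_card, Nat.even_iff] at hcon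
      omega
    haveI : CharP F₀ 2 := h2' ▸ ringChar.charP F₀
    refine h2 ?_
    have h3 := congrArg e (CharTwo.two_eq_zero (R := F₀))
    rwa [map_ofNat, map_zero] at h3
  obtain ⟨c, hc⟩ := OutPO.exists_nonsquare_odd (F₀ := F₀) hodd₀
  have hec : ¬ IsSquare ((Units.map e.toMonoidHom c : Fˣ) : F) := fun h =>
    hc (OutPO.isSquare_of_rational e he (hσ ▸ hr) h2 h)
  -- the two rational representatives
  let Y : ↥(pchi k F).ker := ⟨inclG k e (plusScale (k + 3) c), by
    rw [MonoidHom.mem_ker, pchi_inclG, OutPO.pchi_plusScale]⟩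
  let Z : ↥(pchi k F).ker := ⟨isoIncP (inclIso k e (plusTorus (k + 3) (Pi.mulSingle 0 c))), by
    rw [MonoidHom.mem_ker, isoIncP_inclIso, pchi_inclG, OutPO.pchi_plusTorus]⟩
  have hYC : Y ∈ C := (hC Y).2 ((commute_iff e he hσ _).2 ⟨1, plusScale (k + 3) c, by
    rw [scal_one, one_mul]; rfl⟩)
  have hZC : Z ∈ C := (hC Z).2 ((commute_iff e he hσ _).2
    ⟨1, isoIncP (plusTorus (k + 3) (Pi.mulSingle 0 c)), by
      rw [scal_one, one_mul]; exact isoIncP_inclIso e _⟩)
  suffices hsq : ∀ g : ↥(pchi k F).ker, IsSquare (P.mu g.1) → g ∈ N ⊔ C by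
    intro g _
    by_cases hm : IsSquare (P.mu g.1)
    · exact hsq g hm
    · refine (Subgroup.mul_mem_cancel_left _ (Subgroup.mem_sup_right hYC)).1 (hsq (Y * g) ?_)
      rw [Subgroup.coe_mul, map_mul]
      refine P.nonsquare_mul hodd ?_ hm
      show ¬ IsSquare (P.mu (inclG k e (plusScale (k + 3) c)))
      rw [inclG_scale, mu_plusScale, unit_isSquare]
      exact hec
  intro g hm
  have hd : P.dsign (k + 3) g.1 = 1 := by
    exact (SetLike.ext_iff.1 (OutPO.ker_pchi_eq_dsign (k := k) hodd) g.1).1 g.2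
  have hps := (P.mem_P0_iff (Classical.card_plus k) g.1).2 ⟨hm, hd⟩
  rw [Classical.psoAut_eq] at hps
  obtain ⟨s, ⟨hs1, hs2⟩, hs⟩ := hps
  set s' : ↥(Cfsg.isometryGroup F (Cfsg.quadFormPlus (k + 3) F)) := ⟨s.1, hs1⟩
  have hs' : simAut (isoIncP s') = Φ g := hs
  rcases Int.units_eq_one_or (P.theta s') with h | h
  · refine Subgroup.mem_sup_left ?_
    rw [hN, Subgroup.mem_comap, ← hs']
    exact (P.mem_inn_iso_iff hodd (Classical.card_plus k) s').2 ⟨hs2, Or.inl h⟩
  · refine (Subgroup.mul_mem_cancel_left _ (Subgroup.mem_sup_right hZC)).1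
      (Subgroup.mem_sup_left ?_)
    rw [hN, Subgroup.mem_comap, map_mul, ← hs']
    show simAut (isoIncP (inclIso k e _)) * _ ∈ _
    rw [← map_mul, ← map_mul]
    refine (P.mem_inn_iso_iff hodd (Classical.card_plus k) _).2 ⟨?_, Or.inl ?_⟩
    · rw [Subgroup.coe_mul, map_mul, OutPO.det_of_pchi hodd _ Z.2, one_mul]
      exact hs2
    · rw [map_mul, h, inclIso_torus,
        show (fun i => Units.map e.toMonoidHom ((Pi.mulSingle (0 : Fin (k + 3)) c : Fin (k + 3) → F₀ˣ) i)) =
          Pi.mulSingle (0 : Fin (k + 3)) (Units.map e.toMonoidHom c) from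
          funext fun i => Pi.apply_mulSingle (fun _ => ⇑(Units.map e.toMonoidHom)) (fun _ => map_one _) _ _ i,
        Classical.theta_plusTorus_single k hodd 0 _ hec]
      decide

theorem split_two (Dt : GFData F F₀) :
    Cfsg.splitClassCount (Cfsg.inndiagPOmegaPlus (k + 3) F)
      (Cfsg.Inn (Cfsg.POmega F (Cfsg.quadFormPlus (k + 3) F))) (phiP k F Dt.σ) =
      if Odd (k + 3) ∧ Nat.card F₀ % 4 = 1 then 2 else 4 := by
  set P := plusCoord (F := F) k with hP
  have hn := Classical.card_plus k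
  have hpos := theta_negI_two (k := k) Dt hodd
  let Φ : ↥(pchi k F).ker →* MulAut (Cfsg.POmega F (Cfsg.quadFormPlus (k + 3) F)) :=
    simAut.comp (pchi k F).ker.subtype
  have hrange : Φ.range = Cfsg.inndiagPOmegaPlus (k + 3) F := by
    rw [OutPO.inndiagPlus_eq, MonoidHom.range_comp, Subgroup.range_subtype]
  haveI := AutPSL.inn_normal (Cfsg.POmega F (Cfsg.quadFormPlus (k + 3) F))
  set N := (Cfsg.Inn (Cfsg.POmega F (Cfsg.quadFormPlus (k + 3) F))).comap Φ with hN
  have hNmap : N.map Φ = Cfsg.Inn (Cfsg.POmega F (Cfsg.quadFormPlus (k + 3) F)) :=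
    Subgroup.map_comap_eq_self (hrange ▸ OutPO.inn_le_inndiagPlus)
  let C : Subgroup ↥(pchi k F).ker := (Subgroup.centralizer {phiP k F Dt.σ}).comap Φ
  have hC : ∀ g, g ∈ C ↔ Φ g * phiP k F Dt.σ = phiP k F Dt.σ * Φ g := fun g =>
    Subgroup.mem_centralizer_singleton_iff
  have hCd : ∀ g ∈ C, ∃ (t : Fˣ) (g₀ : ↥(GOp k F₀))
      (s : ↥(Cfsg.isometryGroup F (Cfsg.quadFormPlus (k + 3) F))),
      g.1 = P.scal t * isoIncP s ∧ (simAut (isoIncP s) ∈ Cfsg.Inn _ ↔ P.theta s = 1) ∧
      P.theta s = if Odd (k + 3) ∧ Nat.card F₀ % 4 = 1 ∧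
        ¬ IsSquare ((plusCoord (F := F₀) k).mu g₀ : F₀) then -1 else 1 := by
    intro g hg
    obtain ⟨c, g₀, hg₀⟩ := (commute_iff Dt.e Dt.he Dt.order g.1).1 ((hC g).1 hg)
    have hg1 : pchi k F g.1 = 1 := g.2
    rw [hg₀, map_mul, OutPO.pchi_scalar _ (P.scal_mem c), one_mul, pchi_inclG] at hg1
    obtain ⟨t, s, es, hs, hθ⟩ := inclG_decomp Dt hodd g₀ hg1
    exact ⟨c * t, g₀, s, by rw [hg₀, es, ← mul_assoc, scal_mul],
      inner_iff hodd hpos s hs, hθ⟩
  have hsim : ∀ (t : Fˣ) s, simAut (P.scal t * isoIncP s) = simAut (isoIncP s) := fun t s => by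
    rw [map_mul, P.simAut_scal, one_mul]
  obtain ⟨S₁⟩ := Classical.nonempty_genSim_plus (F := F) k hodd
  have hN4 : N.index = 4 := by
    obtain ⟨R, Z, hdata⟩ := P.quotient_data hodd hn hpos S₁
    have h4 := hdata.2.1
    rw [← OutPO.ker_pchi_eq_dsign hodd] at h4
    exact h4
  rw [← hrange, ← hNmap, AutPSL.splitClassCount_eq_index Φ _ N C hC]
  split_ifs with h
  · let Sq : Subgroup ↥(pchi k F).ker := ((P.muClass hodd).comp (pchi k F).ker.subtype).ker
    have hSq : Sq.index = 2 := by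
      rw [Subgroup.index_ker, MonoidHom.range_eq_top.2, Subgroup.card_top]
      · simp
      · intro z
        have hz : z = 1 ∨ z = Multiplicative.ofAdd 1 := by revert z; decide
        rcases hz with rfl | rfl
        · exact ⟨1, map_one _⟩
        · exact ⟨⟨S₁.s, (OutPO.ker_pchi_eq_dsign hodd).symm ▸ S₁.hs1⟩,
            P.muClass_of_nonsquare hodd S₁.hs2⟩
    have hle : N ⊔ C ≤ Sq := by
      refine sup_le (fun g hg => ?_) fun g hg => ?_
      · show P.muClass hodd g.1 = 1
        rw [P.muClass_eq_one]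
        exact ((P.mem_P0_iff hn g.1).1 (P.inn_le_pso hodd hn hg)).1
      · obtain ⟨t, g₀, s, e, -, -⟩ := hCd g hg
        show P.muClass hodd g.1 = 1
        rw [P.muClass_eq_one, e, map_mul, P.mu_scal, show P.mu (isoIncP s) = 1 from P.mu_inc s,
          mul_one]
        exact ⟨t, rfl⟩
    obtain ⟨c, hc⟩ := OutPO.exists_nonsquare_odd (F₀ := F₀) (Dt.odd_base hodd)
    let g : ↥(pchi k F).ker := ⟨inclG k Dt.e (plusScale (k + 3) c), by
      rw [MonoidHom.mem_ker, pchi_inclG, OutPO.pchi_plusScale]⟩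
    have hgC : g ∈ C := (hC g).2 ((commute_iff Dt.e Dt.he Dt.order _).2
      ⟨1, plusScale (k + 3) c, by rw [scal_one, one_mul]; rfl⟩)
    have hgN : g ∉ N := fun hgN => by
      obtain ⟨t, s, es, hs, hθ⟩ := inclG_decomp Dt hodd (plusScale (k + 3) c) (OutPO.pchi_plusScale c)
      have hmem : simAut (inclG k Dt.e (plusScale (k + 3) c)) ∈ Cfsg.Inn _ := hgN
      rw [es, hsim, inner_iff hodd hpos s hs, hθ, mu_plusScale, if_pos ⟨h.1, h.2, hc⟩] at hmem
      exact absurd hmem (by decide)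
    have hne : N.relIndex (N ⊔ C) ≠ 1 := fun h1 =>
      hgN ((Subgroup.relIndex_eq_one.1 h1) (Subgroup.mem_sup_right hgC))
    have e1 := Subgroup.relIndex_mul_index (le_sup_left : N ≤ N ⊔ C)
    have e2 := Subgroup.relIndex_mul_index hle
    rw [hN4] at e1
    rw [hSq] at e2
    generalize N.relIndex (N ⊔ C) = a at e1 hne
    generalize (N ⊔ C).relIndex Sq = b at e2
    generalize (N ⊔ C).index = i at e1 e2 ⊢
    subst e2
    have ha : a ≠ 0 := fun h0 => by simp [h0] at e1
    have hb : b ≠ 0 := fun h0 => by simp [h0] at e1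
    have ha2 : 2 ≤ a := by omega
    nlinarith [Nat.pos_of_ne_zero hb]
  · rw [sup_eq_left.2, hN4]
    intro g hg
    obtain ⟨t, g₀, s, e, hiff, hθ⟩ := hCd g hg
    show simAut g.1 ∈ Cfsg.Inn _
    rw [e, hsim, hiff, hθ, if_neg fun hh => h ⟨hh.1, hh.2.1⟩]

end Odd

end Cfsg.Agent.POPlus
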